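import Mathlib

/-!
# Counting lemma for groups generated by `y i` with `y i ^ 3 = 1`, `(y i * y j) ^ 2 = 1`

Carmichael's relations: a group with such generators has order at most `(m + 2)! / 2`.
-/

set_option autoImplicit false

namespace Cfsg.Agent.Lib.AltMult

open Subgroup
open scoped commutatorElement

variable {Q : Type*} [Group Q]

/-- Commutators of central translates agree. -/
lemma commutator_central {a b u v : Q} (hu : ∀ g, g * u = u * g) (hv : ∀ g, g * v = v * g) :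
    ⁅a * u, b * v⁆ = ⁅a, b⁆ := by
  simp only [commutatorElement_def]
  have hu' : ∀ g, g * u⁻¹ = u⁻¹ * g := fun g => (Commute.inv_right (hu g)).eq
  have hv' : ∀ g, g * v⁻¹ = v⁻¹ * g := fun g => (Commute.inv_right (hv g)).eq
  calc a * u * (b * v) * (a * u)⁻¹ * (b * v)⁻¹
      = a * (u * b) * (v * u⁻¹) * a⁻¹ * v⁻¹ * b⁻¹ := by group
    _ = a * (b * u) * (v * u⁻¹) * a⁻¹ * v⁻¹ * b⁻¹ := by rw [hu b]
    _ = a * b * ((u * v) * u⁻¹) * a⁻¹ * v⁻¹ * b⁻¹ := by group
    _ = a * b * ((v * u) * u⁻¹) * a⁻¹ * v⁻¹ * b⁻¹ := by rw [hu v]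
    _ = a * b * (v * a⁻¹) * v⁻¹ * b⁻¹ := by group
    _ = a * b * (a⁻¹ * v) * v⁻¹ * b⁻¹ := by rw [hv a⁻¹]
    _ = a * b * a⁻¹ * b⁻¹ := by group



lemma rel_swap {x y : Q} (h : (x * y) ^ 2 = 1) : (y * x) ^ 2 = 1 := by
  have : (y * x) ^ 2 = x⁻¹ * (x * y) ^ 2 * x := by
    simp only [pow_two, mul_assoc, inv_mul_cancel_left]
  rw [this, h]; simp

/-- `y⁻¹ x⁻¹ = x y` if `(x y)² = 1`. -/
lemma rel_inv {x y : Q} (h : (x * y) ^ 2 = 1) : y⁻¹ * x⁻¹ = x * y := by
  rw [← mul_inv_rev, inv_eq_iff_mul_eq_one, ← pow_two, h]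

lemma inv_eq_sq {x : Q} (h : x ^ 3 = 1) : x⁻¹ = x * x := by
  rw [inv_eq_iff_mul_eq_one, ← h]; simp [pow_succ, mul_assoc]

lemma inv_inv_eq {x : Q} (h : x ^ 3 = 1) : x⁻¹ * x⁻¹ = x := by
  rw [← mul_inv_rev, inv_eq_iff_mul_eq_one, ← h]; simp [pow_succ, mul_assoc]

/-- Coset step: right multiplication by a generator permutes the `m + 3` cosets. -/
theorem coset_step {ι : Type*} (s : Set ι) (y : ι → Q) (t : Q)
    (ht : t ^ 3 = 1) (hy : ∀ i ∈ s, y i ^ 3 = 1) (hyt : ∀ i ∈ s, (y i * t) ^ 2 = 1)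
    (hyy : ∀ i ∈ s, ∀ j ∈ s, i ≠ j → (y i * y j) ^ 2 = 1)
    (H : Subgroup Q) (hH : ∀ i ∈ s, y i ∈ H) (S : Set Q) (h1 : (1 : Q) ∈ S) (h2 : t ∈ S)
    (h3 : t⁻¹ ∈ S) (h4 : ∀ i ∈ s, t⁻¹ * y i ∈ S)
    (hS : ∀ r ∈ S, r = 1 ∨ r = t ∨ r = t⁻¹ ∨ ∃ i ∈ s, r = t⁻¹ * y i)
    (g : Q) (hg : ∃ h ∈ H, ∃ r ∈ S, g = h * r) (x : Q) (hx : x = t ∨ ∃ i ∈ s, x = y i) :
    ∃ h ∈ H, ∃ r ∈ S, g * x = h * r := by
  obtain ⟨h, hh, r, hr, rfl⟩ := hg
  rcases hx with rfl | ⟨i, hi, rfl⟩
  · rcases hS r hr with rfl | rfl | rfl | ⟨i, hi, rfl⟩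
    · exact ⟨h, hh, x, h2, by simp⟩
    · refine ⟨h, hh, r⁻¹, h3, ?_⟩
      rw [inv_eq_sq ht, mul_assoc]
    · exact ⟨h, hh, 1, h1, by simp⟩
    · -- (t⁻¹ y) t = y⁻¹ (t⁻¹ y)
      refine ⟨h * (y i)⁻¹, H.mul_mem hh (H.inv_mem (hH i hi)), x⁻¹ * y i, h4 i hi, ?_⟩
      have F1 : y i * x = x⁻¹ * (y i)⁻¹ := (rel_inv (hyt i hi)).symm
      have F2 : (y i)⁻¹ * x⁻¹ = x * y i := rel_inv (rel_swap (hyt i hi))
      have e1 : x⁻¹ * y i * x = x * (y i)⁻¹ := by
        rw [mul_assoc, F1, ← mul_assoc, inv_inv_eq ht]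
      have e2 : (y i)⁻¹ * (x⁻¹ * y i) = x * (y i)⁻¹ := by
        rw [← mul_assoc, F2, mul_assoc, ← inv_eq_sq (hy i hi)]
      rw [mul_assoc h, e1, mul_assoc h, e2]
  · rcases hS r hr with rfl | rfl | rfl | ⟨j, hj, rfl⟩
    · exact ⟨h * y i, H.mul_mem hh (hH i hi), 1, h1, by simp⟩
    · -- t y = y⁻¹ t⁻¹
      refine ⟨h * (y i)⁻¹, H.mul_mem hh (H.inv_mem (hH i hi)), r⁻¹, h3, ?_⟩
      have F2 : (y i)⁻¹ * r⁻¹ = r * y i := rel_inv (rel_swap (hyt i hi))
      rw [mul_assoc h, mul_assoc h, F2]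
    · exact ⟨h, hh, t⁻¹ * y i, h4 i hi, by simp [mul_assoc]⟩
    · by_cases hij : j = i
      · subst hij
        -- t⁻¹ y y = y t
        refine ⟨h * y j, H.mul_mem hh (hH j hi), t, h2, ?_⟩
        have F1 : y j * t = t⁻¹ * (y j)⁻¹ := (rel_inv (hyt j hi)).symm
        rw [mul_assoc h, mul_assoc h, F1, mul_assoc, ← inv_eq_sq (hy j hi)]
      · -- (t⁻¹ y_j) y_i = (y_i y_j⁻¹) (t⁻¹ y_j)
        refine ⟨h * (y i * (y j)⁻¹), H.mul_mem hh (H.mul_mem (hH i hi) (H.inv_mem (hH j hj))),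
          t⁻¹ * y j, h4 j hj, ?_⟩
        have F1 : y i * t = t⁻¹ * (y i)⁻¹ := (rel_inv (hyt i hi)).symm
        have F2 : (y j)⁻¹ * t⁻¹ = t * y j := rel_inv (rel_swap (hyt j hj))
        have F3 : (y i)⁻¹ * (y j)⁻¹ = y j * y i := rel_inv (hyy j hj i hi hij)
        have e1 : y i * (y j)⁻¹ * (t⁻¹ * y j) = t⁻¹ * y j * y i := by
          calc y i * (y j)⁻¹ * (t⁻¹ * y j) = y i * ((y j)⁻¹ * t⁻¹) * y j := by group
            _ = y i * t * (y j * y j) := by rw [F2]; group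
            _ = t⁻¹ * ((y i)⁻¹ * (y j)⁻¹) := by rw [F1, ← inv_eq_sq (hy j hj)]; group
            _ = t⁻¹ * y j * y i := by rw [F3]; group
        rw [mul_assoc h (y i * (y j)⁻¹), e1]
        simp only [mul_assoc]

variable [Finite Q]

/-- One inductive step: adjoining `t` multiplies the order by at most `|s| + 3`. -/
theorem card_closure_insert_le {ι : Type*} [DecidableEq ι] (s : Finset ι) (y : ι → Q) (t : Q)
    (ht : t ^ 3 = 1) (hy : ∀ i ∈ s, y i ^ 3 = 1) (hyt : ∀ i ∈ s, (y i * t) ^ 2 = 1)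
    (hyy : ∀ i ∈ s, ∀ j ∈ s, i ≠ j → (y i * y j) ^ 2 = 1) :
    Nat.card (closure (insert t (y '' (s : Set ι)))) ≤
      Nat.card (closure (y '' (s : Set ι))) * (s.card + 3) := by
  classical
  have := Fintype.ofFinite Q
  set H := closure (y '' (s : Set ι)) with hH
  let S : Finset Q := insert 1 (insert t (insert t⁻¹ (s.image fun i => t⁻¹ * y i)))
  have hScard : S.card ≤ s.card + 3 := by
    calc S.card ≤ (insert t (insert t⁻¹ (s.image fun i => t⁻¹ * y i))).card + 1 :=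
          Finset.card_insert_le _ _
      _ ≤ (insert t⁻¹ (s.image fun i => t⁻¹ * y i)).card + 1 + 1 := by
          gcongr; exact Finset.card_insert_le _ _
      _ ≤ (s.image fun i => t⁻¹ * y i).card + 1 + 1 + 1 := by
          gcongr; exact Finset.card_insert_le _ _
      _ ≤ s.card + 1 + 1 + 1 := by gcongr; exact Finset.card_image_le
  have hHmem : ∀ i ∈ (s : Set ι), y i ∈ H := fun i hi => subset_closure ⟨i, hi, rfl⟩
  have hrep : ∀ g ∈ closure (insert t (y '' (s : Set ι))), ∃ h ∈ H, ∃ r ∈ (S : Set Q), g = h * r := by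
    intro g hg
    have step : ∀ g : Q, (∃ h ∈ H, ∃ r ∈ (S : Set Q), g = h * r) →
        ∀ x, (x = t ∨ ∃ i ∈ (s : Set ι), x = y i) → ∃ h ∈ H, ∃ r ∈ (S : Set Q), g * x = h * r := by
      intro g hg x hx
      refine coset_step (s : Set ι) y t ht (fun i hi => hy i hi) (fun i hi => hyt i hi)
        (fun i hi j hj => hyy i hi j hj) H hHmem (S : Set Q) (by simp [S]) (by simp [S])
        (by simp [S]) (fun i hi => ?_) (fun r hr => ?_) g hg x hx
      · simp only [S, Finset.coe_insert, Finset.coe_image, Set.mem_insert_iff, Set.mem_image]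
        exact Or.inr (Or.inr (Or.inr ⟨i, hi, rfl⟩))
      · simp only [S, Finset.coe_insert, Finset.coe_image, Set.mem_insert_iff, Set.mem_image] at hr
        rcases hr with rfl | rfl | rfl | ⟨i, hi, rfl⟩
        · exact Or.inl rfl
        · exact Or.inr (Or.inl rfl)
        · exact Or.inr (Or.inr (Or.inl rfl))
        · exact Or.inr (Or.inr (Or.inr ⟨i, hi, rfl⟩))
    induction hg using closure_induction_right with
    | one => exact ⟨1, H.one_mem, 1, by simp [S], by simp⟩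
    | mul_right g hg x hx ih =>
      refine step g ih x ?_
      rcases hx with rfl | ⟨i, hi, rfl⟩
      · exact Or.inl rfl
      · exact Or.inr ⟨i, hi, rfl⟩
    | mul_inv_cancel g hg x hx ih =>
      have hx' : x = t ∨ ∃ i ∈ (s : Set ι), x = y i := by
        rcases hx with rfl | ⟨i, hi, rfl⟩
        · exact Or.inl rfl
        · exact Or.inr ⟨i, hi, rfl⟩
      have hx3 : x ^ 3 = 1 := by
        rcases hx' with rfl | ⟨i, hi, rfl⟩
        · exact ht
        · exact hy i hi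
      rw [inv_eq_sq hx3, ← mul_assoc]
      exact step _ (step g ih x hx') x hx'
  -- inject into H × S
  choose! f hf1 r hr1 hr2 using hrep
  let F : closure (insert t (y '' (s : Set ι))) → H × (S : Set Q) :=
    fun g => (⟨f g, hf1 g g.2⟩, ⟨r g, hr1 g g.2⟩)
  have hF : Function.Injective F := by
    intro a b hab
    have h1 : f a = f b := congrArg (fun p => ((p.1 : H) : Q)) hab
    have h2 : r a = r b := congrArg (fun p => ((p.2 : (S : Set Q)) : Q)) hab
    apply Subtype.ext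
    rw [hr2 a a.2, hr2 b b.2, h1, h2]
  calc Nat.card (closure (insert t (y '' (s : Set ι))))
      ≤ Nat.card (H × (S : Set Q)) := Nat.card_le_card_of_injective F hF
    _ = Nat.card H * S.card := by
        rw [Nat.card_prod]; congr 1
        simp [Nat.card_eq_fintype_card]
    _ ≤ _ := Nat.mul_le_mul_left _ hScard

/-- Carmichael's bound. -/
theorem two_mul_card_closure_le {ι : Type*} [DecidableEq ι] (s : Finset ι) (y : ι → Q)
    (hy : ∀ i ∈ s, y i ^ 3 = 1) (hyy : ∀ i ∈ s, ∀ j ∈ s, i ≠ j → (y i * y j) ^ 2 = 1) :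
    2 * Nat.card (closure (y '' (s : Set ι))) ≤ (s.card + 2).factorial := by
  induction s using Finset.induction_on with
  | empty => simp [Nat.factorial]
  | insert a s ha ih =>
    have ih' := ih (fun i hi => hy i (Finset.mem_insert_of_mem hi))
      (fun i hi j hj => hyy i (Finset.mem_insert_of_mem hi) j (Finset.mem_insert_of_mem hj))
    have hstep := card_closure_insert_le s y (y a) (hy a (Finset.mem_insert_self _ _))
      (fun i hi => hy i (Finset.mem_insert_of_mem hi))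
      (fun i hi => hyy i (Finset.mem_insert_of_mem hi) a (Finset.mem_insert_self _ _)
        (by rintro rfl; exact ha hi))
      (fun i hi j hj => hyy i (Finset.mem_insert_of_mem hi) j (Finset.mem_insert_of_mem hj))
    have himg : y '' ((insert a s : Finset ι) : Set ι) = insert (y a) (y '' (s : Set ι)) := by
      rw [Finset.coe_insert, Set.image_insert_eq]
    rw [himg, Finset.card_insert_of_notMem ha]
    calc 2 * Nat.card (closure (insert (y a) (y '' (s : Set ι))))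
        ≤ 2 * (Nat.card (closure (y '' (s : Set ι))) * (s.card + 3)) := by gcongr
      _ = (2 * Nat.card (closure (y '' (s : Set ι)))) * (s.card + 3) := by ring
      _ ≤ (s.card + 2).factorial * (s.card + 3) := by gcongr
      _ = (s.card + 1 + 2).factorial := by
          rw [show s.card + 1 + 2 = (s.card + 2) + 1 by ring, Nat.factorial_succ (s.card + 2)]
          exact Nat.mul_comm _ _

end Cfsg.Agent.Lib.AltMult
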