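import Cfsg.Agent.Lib.AltMult.Perm

/-!
# Central extensions of `A_n`, `n ≥ 8`: lifting the relations
-/

set_option autoImplicit false

namespace Cfsg.Agent.Lib.AltMult

open Subgroup Equiv Equiv.Perm
open scoped commutatorElement

section Abstract

variable {G : Type*} [Group G]

/-- Two-step conjugation trick showing that lifts of disjoint 3-cycles commute. -/
lemma abstract_comm {a d φ κ μ ν : G} (hκc : ∀ g, g * κ = κ * g) (hμc : ∀ g, g * μ = μ * g)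
    (hνc : ∀ g, g * ν = ν * g) (h1 : a * d * a⁻¹ = κ * d) (h3 : ∀ g, g * a ^ 3 = a ^ 3 * g)
    (hμ : φ * a * φ⁻¹ = μ * a) (hν : φ * d * φ⁻¹ = ν * d⁻¹) : κ = 1 := by
  have e : ∀ n : ℕ, a ^ n * d * (a ^ n)⁻¹ = κ ^ n * d := by
    intro n
    induction n with
    | zero => simp
    | succ n ih =>
      have hk : Commute a (κ ^ n) := Commute.pow_right (hκc a) n
      calc a ^ (n + 1) * d * (a ^ (n + 1))⁻¹ = a * (a ^ n * d * (a ^ n)⁻¹) * a⁻¹ := by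
            rw [pow_succ']; group
        _ = a * (κ ^ n * d) * a⁻¹ := by rw [ih]
        _ = κ ^ n * (a * d * a⁻¹) := by
            rw [← mul_assoc a, hk.eq]; group
        _ = κ ^ (n + 1) * d := by rw [h1, pow_succ]; group
  have hκ3 : κ ^ 3 = 1 := by
    have e3 := e 3
    rw [← h3 d, mul_assoc, mul_inv_cancel, mul_one] at e3
    exact (mul_eq_right.mp e3.symm)
  have e5 : φ * (a * d * a⁻¹) * φ⁻¹ = (φ * a * φ⁻¹) * (φ * d * φ⁻¹) * (φ * a * φ⁻¹)⁻¹ := by group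
  rw [hμ, hν, h1] at e5
  have lhs : φ * (κ * d) * φ⁻¹ = κ * (ν * d⁻¹) := by
    rw [← hν, ← mul_assoc φ, hκc φ]; group
  have rhs : (μ * a) * (ν * d⁻¹) * (μ * a)⁻¹ = ν * (κ⁻¹ * d⁻¹) := by
    have e6 : a * d⁻¹ * a⁻¹ = κ⁻¹ * d⁻¹ := by
      have : a * d⁻¹ * a⁻¹ = (a * d * a⁻¹)⁻¹ := by group
      rw [this, h1, mul_inv_rev]
      have hc : Commute d⁻¹ κ⁻¹ := (Commute.inv_right (hκc d⁻¹))
      exact hc.eq
    calc (μ * a) * (ν * d⁻¹) * (μ * a)⁻¹ = μ * (a * ν) * d⁻¹ * (a⁻¹ * μ⁻¹) := by group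
      _ = μ * (ν * a) * d⁻¹ * (a⁻¹ * μ⁻¹) := by rw [hνc a]
      _ = ν * μ * (a * d⁻¹ * a⁻¹) * μ⁻¹ := by
          rw [← mul_assoc μ ν a, ← hνc μ]; group
      _ = ν * μ * (κ⁻¹ * d⁻¹) * μ⁻¹ := by rw [e6]
      _ = ν * ((κ⁻¹ * d⁻¹) * μ) * μ⁻¹ := by rw [hμc (κ⁻¹ * d⁻¹)]; group
      _ = ν * (κ⁻¹ * d⁻¹) := by group
  rw [lhs, rhs] at e5
  have e7 : κ * ν * d⁻¹ = κ⁻¹ * ν * d⁻¹ := by
    calc κ * ν * d⁻¹ = κ * (ν * d⁻¹) := by group
      _ = ν * (κ⁻¹ * d⁻¹) := e5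
      _ = ν * κ⁻¹ * d⁻¹ := by group
      _ = κ⁻¹ * ν * d⁻¹ := by
          have hc : Commute ν κ⁻¹ := Commute.inv_right (Commute.symm (hνc κ))
          rw [hc.eq]
  have e8 : κ = κ⁻¹ := by
    have := mul_right_cancel (mul_right_cancel e7)
    exact this
  have e9 : κ ^ 2 = 1 := by
    rw [pow_two]; nth_rewrite 2 [e8]; simp
  calc κ = κ ^ 3 * (κ ^ 2)⁻¹ := by rw [pow_succ κ 2]; group
    _ = 1 := by rw [hκ3, e9]; simp

/-- Normalising a lift of a 3-cycle. -/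
lemma normal_lift {a σ θ : G} (hθc : ∀ g, g * θ = θ * g) (h3 : ∀ g, g * a ^ 3 = a ^ 3 * g)
    (h : σ * a * σ⁻¹ = θ * a⁻¹) :
    (a ^ 4 * (θ⁻¹) ^ 2) ^ 3 = 1 ∧ σ * (a ^ 4 * (θ⁻¹) ^ 2) * σ⁻¹ = (a ^ 4 * (θ⁻¹) ^ 2)⁻¹ := by
  have hac : Commute a θ := hθc a
  have hconj : ∀ n : ℕ, σ * a ^ n * σ⁻¹ = (θ * a⁻¹) ^ n := by
    intro n
    rw [← h, conj_pow]
  have hθ3 : θ ^ 3 = a ^ 6 := by
    have e1 := hconj 3
    rw [h3 σ, mul_assoc, mul_inv_cancel, mul_one, (hac.inv_left.symm).mul_pow] at e1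
    have e2 : a ^ 6 = a ^ 3 * a ^ 3 := by rw [← pow_add]
    rw [e2]; nth_rewrite 1 [e1]
    simp [mul_assoc]
  constructor
  · have hc2 : Commute (a ^ 4) ((θ⁻¹) ^ 2) := (hac.inv_right).pow_pow 4 2
    rw [hc2.mul_pow, ← pow_mul, ← pow_mul]
    have e3 : (θ⁻¹) ^ (2 * 3) = ((θ ^ 3) ^ 2)⁻¹ := by
      rw [inv_pow, ← pow_mul]
    rw [e3, hθ3, ← pow_mul]; norm_num
  · rw [eq_inv_iff_mul_eq_one]
    have e4 : σ * (a ^ 4 * (θ⁻¹) ^ 2) * σ⁻¹ = (θ * a⁻¹) ^ 4 * (θ⁻¹) ^ 2 := by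
      have : σ * (a ^ 4 * (θ⁻¹) ^ 2) * σ⁻¹ = (σ * a ^ 4 * σ⁻¹) * (σ * (θ⁻¹) ^ 2 * σ⁻¹) := by group
      rw [this, hconj 4]
      congr 1
      have hc : Commute σ ((θ⁻¹) ^ 2) := (Commute.pow_right (Commute.inv_right (hθc σ)) 2)
      rw [hc.eq]; group
    rw [e4, (hac.inv_left.symm).mul_pow]
    set x := (θ⁻¹) ^ 2 with hx
    have hxc : Commute (a ^ 4) x := (hac.inv_right).pow_pow 4 2
    calc θ ^ 4 * a⁻¹ ^ 4 * x * (a ^ 4 * x) = θ ^ 4 * a⁻¹ ^ 4 * (x * a ^ 4) * x := by group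
      _ = θ ^ 4 * a⁻¹ ^ 4 * (a ^ 4 * x) * x := by rw [hxc.eq]
      _ = θ ^ 4 * x * x := by simp [mul_assoc]
      _ = 1 := by rw [hx]; group

end Abstract

section Lift

variable {Γ : Type*} [Group Γ] {α : Type*} [Fintype α] [DecidableEq α]
  (f : Γ →* Perm α) (hsurj : ∀ ρ ∈ alternatingGroup α, ∃ σ, f σ = ρ)
  (hcen : ∀ u, f u = 1 → ∀ g, g * u = u * g)

omit [Fintype α] [DecidableEq α] in
lemma inj4 {a b c d : α} (hab : a ≠ b) (hac : a ≠ c) (had : a ≠ d) (hbc : b ≠ c) (hbd : b ≠ d)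
    (hcd : c ≠ d) : Function.Injective ![a, b, c, d] := by
  intro i j h
  fin_cases i <;> fin_cases j <;> simp_all

lemma exists_two_avoid (S : Finset α) (h : S.card + 2 ≤ Fintype.card α) :
    ∃ u v, u ∉ S ∧ v ∉ S ∧ u ≠ v := by
  have h1 : 1 < (Finset.univ \ S).card := by
    rw [Finset.card_sdiff_of_subset (Finset.subset_univ _), Finset.card_univ]; omega
  obtain ⟨u, hu, v, hv, huv⟩ := Finset.one_lt_card.mp h1
  exact ⟨u, v, by simpa using hu, by simpa using hv, huv⟩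

include hsurj in
/-- `A_n` is 4-transitive for `n ≥ 6` (lifted to `Γ`). -/
lemma lift4 (hcard : 6 ≤ Fintype.card α) {p : Fin 4 → α} {q : Fin 4 → α}
    (hp : Function.Injective p) (hq : Function.Injective q) : ∃ g : Γ, ∀ i, f g (p i) = q i := by
  have h1 := alternatingGroup.isMultiplyPretransitive α
  have h2 : MulAction.IsMultiplyPretransitive (alternatingGroup α) α 4 :=
    MulAction.isMultiplyPretransitive_of_le (n := Nat.card α - 2) (by
      rw [Nat.card_eq_fintype_card]; omega) (by omega)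
  obtain ⟨g, hg⟩ := MulAction.exists_smul_eq (alternatingGroup α)
    (⟨p, hp⟩ : Fin 4 ↪ α) (⟨q, hq⟩ : Fin 4 ↪ α)
  obtain ⟨σ, hσ⟩ := hsurj g.1 g.2
  refine ⟨σ, fun i => ?_⟩
  have := congrArg (fun e : Fin 4 ↪ α => e i) hg
  rw [hσ]
  exact this

include hsurj hcen in
/-- Lifts of disjoint 3-cycles commute (`n ≥ 8`). -/
lemma commute_lift_disjoint (hcard : 8 ≤ Fintype.card α) {e0 e1 e2 p q r : α}
    (h01 : e0 ≠ e1) (h12 : e1 ≠ e2) (h02 : e0 ≠ e2) (hpq : p ≠ q) (hqr : q ≠ r) (hpr : p ≠ r)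
    (hp : p ≠ e0 ∧ p ≠ e1 ∧ p ≠ e2) (hq : q ≠ e0 ∧ q ≠ e1 ∧ q ≠ e2) (hr : r ≠ e0 ∧ r ≠ e1 ∧ r ≠ e2)
    {a δ : Γ} (hfa : f a = cyc e0 e1 e2) (hfd : f δ = cyc p q r) (ha3 : ∀ g, g * a ^ 3 = a ^ 3 * g) :
    a * δ = δ * a := by
  obtain ⟨u, v, hu, hv, huv⟩ := exists_two_avoid ({e0, e1, e2, p, q, r} : Finset α)
    (by have : ({e0, e1, e2, p, q, r} : Finset α).card ≤ 6 := Finset.card_le_six
        omega)
  simp only [Finset.mem_insert, Finset.mem_singleton, not_or] at hu hv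
  obtain ⟨hu0, hu1, hu2, hup, huq, hur⟩ := hu
  obtain ⟨hv0, hv1, hv2, hvp, hvq, hvr⟩ := hv
  obtain ⟨φ, hφ⟩ := hsurj (swap p q * swap u v) (by
    rw [mem_alternatingGroup, Perm.sign_mul, sign_swap hpq, sign_swap huv]; simp)
  have hφp : ∀ x, x ≠ p → x ≠ q → x ≠ u → x ≠ v → f φ x = x := by
    intro x h1 h2 h3 h4
    rw [hφ, Perm.mul_apply, swap_apply_of_ne_of_ne h3 h4, swap_apply_of_ne_of_ne h1 h2]
  -- commuting of the images
  have hcomm1 : cyc p q r * cyc e0 e1 e2 = cyc e0 e1 e2 * cyc p q r :=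
    commute_cyc_of_fix (cyc_apply_of_ne (Ne.symm hp.1) (Ne.symm hq.1) (Ne.symm hr.1))
      (cyc_apply_of_ne (Ne.symm hp.2.1) (Ne.symm hq.2.1) (Ne.symm hr.2.1))
      (cyc_apply_of_ne (Ne.symm hp.2.2) (Ne.symm hq.2.2) (Ne.symm hr.2.2))
  have hκ : f (a * δ * a⁻¹ * δ⁻¹) = 1 := by
    simp only [map_mul, map_inv, hfa, hfd]
    rw [← hcomm1]; group
  have hμ : f (φ * a * φ⁻¹ * a⁻¹) = 1 := by
    have hc : f φ * cyc e0 e1 e2 = cyc e0 e1 e2 * f φ :=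
      commute_cyc_of_fix (hφp _ (Ne.symm hp.1) (Ne.symm hq.1) (Ne.symm hu0) (Ne.symm hv0))
        (hφp _ (Ne.symm hp.2.1) (Ne.symm hq.2.1) (Ne.symm hu1) (Ne.symm hv1))
        (hφp _ (Ne.symm hp.2.2) (Ne.symm hq.2.2) (Ne.symm hu2) (Ne.symm hv2))
    simp only [map_mul, map_inv, hfa]
    rw [hc]; group
  have hφd : f φ * cyc p q r * (f φ)⁻¹ = (cyc p q r)⁻¹ := by
    rw [conj_cyc, cyc_inv hpq hqr hpr, hφ]
    congr 1
    · rw [Perm.mul_apply, swap_apply_of_ne_of_ne (Ne.symm hup) (Ne.symm hvp), swap_apply_left]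
    · rw [Perm.mul_apply, swap_apply_of_ne_of_ne (Ne.symm huq) (Ne.symm hvq), swap_apply_right]
    · rw [Perm.mul_apply, swap_apply_of_ne_of_ne (Ne.symm hur) (Ne.symm hvr),
        swap_apply_of_ne_of_ne (Ne.symm hpr) (Ne.symm hqr)]
  have hν : f (φ * δ * φ⁻¹ * δ) = 1 := by
    simp only [map_mul, map_inv, hfd]
    rw [hφd]; simp
  have key := abstract_comm (a := a) (d := δ) (φ := φ) (hcen _ hκ) (hcen _ hμ) (hcen _ hν)
    (by group) ha3 (by group) (by group)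
  have : a * δ * a⁻¹ = δ := by
    have h := key
    rw [mul_inv_eq_one] at h
    exact h
  rw [mul_inv_eq_iff_eq_mul] at this
  exact this

include hsurj hcen in
lemma commute_lift_stab (hcard : 8 ≤ Fintype.card α) {e0 e1 e2 : α}
    (h01 : e0 ≠ e1) (h12 : e1 ≠ e2) (h02 : e0 ≠ e2)
    {a : Γ} (hfa : f a = cyc e0 e1 e2) (ha3 : ∀ g, g * a ^ 3 = a ^ 3 * g) {σ : Γ}
    (h0 : f σ e0 = e0) (h1 : f σ e1 = e1) (h2 : f σ e2 = e2) (hσalt : f σ ∈ alternatingGroup α) :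
    a * σ = σ * a := by
  let P : α → Prop := fun x => x ≠ e0 ∧ x ≠ e1 ∧ x ≠ e2
  have key : ∀ ρ' ∈ alternatingGroup (Subtype P), ∀ σ : Γ, f σ = ofSubtype ρ' → a * σ = σ * a := by
    intro ρ' hρ'
    rw [← closure_three_cycles_eq_alternating] at hρ'
    induction hρ' using closure_induction with
    | mem x hx =>
      intro σ hσ
      obtain ⟨p, q, r, hpq, hqr, hpr, rfl⟩ := threeCycle_form hx
      have e : ofSubtype (cyc p q r) = cyc (p : α) (q : α) (r : α) := by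
        simp only [cyc, map_mul, ofSubtype_swap_eq]
      rw [e] at hσ
      exact commute_lift_disjoint f hsurj hcen hcard h01 h12 h02
        (fun h => hpq (Subtype.ext h)) (fun h => hqr (Subtype.ext h)) (fun h => hpr (Subtype.ext h))
        p.2 q.2 r.2 hfa hσ ha3
    | one =>
      intro σ hσ
      have : f σ = 1 := by simpa using hσ
      exact hcen σ this a
    | mul x y hx hy ihx ihy =>
      intro σ hσ
      have hxalt : ofSubtype x ∈ alternatingGroup α := by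
        rw [closure_three_cycles_eq_alternating, mem_alternatingGroup] at hx
        rw [mem_alternatingGroup, sign_ofSubtype, hx]
      have hyalt : ofSubtype y ∈ alternatingGroup α := by
        rw [closure_three_cycles_eq_alternating, mem_alternatingGroup] at hy
        rw [mem_alternatingGroup, sign_ofSubtype, hy]
      obtain ⟨s1, hs1⟩ := hsurj _ hxalt
      obtain ⟨s2, hs2⟩ := hsurj _ hyalt
      have hu : f (σ * (s1 * s2)⁻¹) = 1 := by
        simp only [map_mul, map_inv, hσ, hs1, hs2]; simp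
      have e1 : a * (σ * (s1 * s2)⁻¹) = (σ * (s1 * s2)⁻¹) * a := hcen _ hu a
      have e2 : a * s1 = s1 * a := ihx s1 hs1
      have e3 : a * s2 = s2 * a := ihy s2 hs2
      have hc : Commute a (s1 * s2) := Commute.mul_right e2 e3
      have hc' : Commute a (σ * (s1 * s2)⁻¹) := e1
      have := hc'.mul_right hc
      rw [inv_mul_cancel_right] at this
      exact this
    | inv x hx ih =>
      intro σ hσ
      have : f σ⁻¹ = ofSubtype x := by
        rw [map_inv, hσ, map_inv, inv_inv]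
      have h3 : Commute a σ⁻¹ := ih σ⁻¹ this
      have h4 : Commute a σ := by simpa using h3.inv_right
      exact h4
  -- now apply to σ
  have hinv : ∀ x, P (f σ x) ↔ P x := by
    intro x
    simp only [P]
    constructor
    · rintro ⟨h3, h4, h5⟩
      refine ⟨?_, ?_, ?_⟩
      · rintro rfl; exact h3 h0
      · rintro rfl; exact h4 h1
      · rintro rfl; exact h5 h2
    · rintro ⟨h3, h4, h5⟩
      refine ⟨?_, ?_, ?_⟩
      · intro h; apply h3; apply (f σ).injective; rw [h, h0]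
      · intro h; apply h4; apply (f σ).injective; rw [h, h1]
      · intro h; apply h5; apply (f σ).injective; rw [h, h2]
  have hout : ∀ x, f σ x ≠ x → P x := by
    intro x hx
    refine ⟨?_, ?_, ?_⟩
    · rintro rfl; exact hx h0
    · rintro rfl; exact hx h1
    · rintro rfl; exact hx h2
  have hsub : (f σ).subtypePerm hinv ∈ alternatingGroup (Subtype P) := by
    rw [mem_alternatingGroup, sign_subtypePerm _ hinv hout]
    exact hσalt
  exact key _ hsub σ (ofSubtype_subtypePerm hinv hout).symm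

include hsurj hcen in
/-- The generators and relations for a central extension of `A_n`, `n ≥ 8`. -/
theorem exists_gens (hrange : ∀ σ, f σ ∈ alternatingGroup α) (hcard : 8 ≤ Fintype.card α)
    {e0 e1 e2 e3 : α} (h01 : e0 ≠ e1) (h02 : e0 ≠ e2) (h03 : e0 ≠ e3) (h12 : e1 ≠ e2)
    (h13 : e1 ≠ e3) (h23 : e2 ≠ e3) :
    ∃ (y : α → Γ) (z : Γ), (∀ k, k ≠ e0 → k ≠ e1 → f (y k) = cyc e0 e1 k) ∧
      (∀ k, k ≠ e0 → k ≠ e1 → y k ^ 3 = 1) ∧
      (∀ k l, k ≠ e0 → k ≠ e1 → l ≠ e0 → l ≠ e1 → k ≠ l → (y k * y l) ^ 2 = z) ∧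
      z ^ 2 = 1 ∧ f z = 1 := by
  -- Step A: the normalised lift of (e0 e1 e2)
  obtain ⟨u, v, hu, hv, huv⟩ := exists_two_avoid ({e0, e1, e2} : Finset α)
    (by have : ({e0, e1, e2} : Finset α).card ≤ 3 := Finset.card_le_three
        omega)
  simp only [Finset.mem_insert, Finset.mem_singleton, not_or] at hu hv
  obtain ⟨hu0, hu1, hu2⟩ := hu
  obtain ⟨hv0, hv1, hv2⟩ := hv
  obtain ⟨σ₀, hσ₀⟩ := hsurj (swap e0 e1 * swap u v) (by
    rw [mem_alternatingGroup, Perm.sign_mul, sign_swap h01, sign_swap huv]; simp)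
  have hs0 : f σ₀ e0 = e1 := by
    rw [hσ₀, Perm.mul_apply, swap_apply_of_ne_of_ne (Ne.symm hu0) (Ne.symm hv0), swap_apply_left]
  have hs1 : f σ₀ e1 = e0 := by
    rw [hσ₀, Perm.mul_apply, swap_apply_of_ne_of_ne (Ne.symm hu1) (Ne.symm hv1), swap_apply_right]
  have hs2 : f σ₀ e2 = e2 := by
    rw [hσ₀, Perm.mul_apply, swap_apply_of_ne_of_ne (Ne.symm hu2) (Ne.symm hv2),
      swap_apply_of_ne_of_ne (Ne.symm h02) (Ne.symm h12)]
  obtain ⟨a₀, ha₀⟩ := hsurj (cyc e0 e1 e2) (cyc_mem h01 h12 h02)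
  have ha₀3 : ∀ g, g * a₀ ^ 3 = a₀ ^ 3 * g := by
    apply hcen
    rw [map_pow, ha₀, cyc_pow_three h01 h12 h02]
  have hθ : f (σ₀ * a₀ * σ₀⁻¹ * a₀) = 1 := by
    have e : f σ₀ * cyc e0 e1 e2 * (f σ₀)⁻¹ = (cyc e0 e1 e2)⁻¹ := by
      rw [conj_cyc, hs0, hs1, hs2, cyc_inv h01 h12 h02]
    simp only [map_mul, map_inv, ha₀]
    rw [e]; simp
  have hθc := hcen _ hθ
  set θ := σ₀ * a₀ * σ₀⁻¹ * a₀ with hθdef
  have hlift := normal_lift (a := a₀) (σ := σ₀) (θ := θ) hθc ha₀3 (by rw [hθdef]; group)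
  set a := a₀ ^ 4 * (θ⁻¹) ^ 2 with hadef
  have ha3 : a ^ 3 = 1 := hlift.1
  have hainv : σ₀ * a * σ₀⁻¹ = a⁻¹ := hlift.2
  have hfa : f a = cyc e0 e1 e2 := by
    rw [hadef, map_mul, map_pow, map_pow, map_inv, hθ, ha₀]
    rw [inv_one, one_pow, mul_one, show (4 : ℕ) = 3 + 1 by norm_num, pow_succ,
      cyc_pow_three h01 h12 h02, one_mul]
  have ha3c : ∀ g, g * a ^ 3 = a ^ 3 * g := by intro g; rw [ha3]; simp
  -- Step B: conjugates depend only on the images of e0, e1, e2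
  have hU : ∀ σ σ' : Γ, f σ e0 = f σ' e0 → f σ e1 = f σ' e1 → f σ e2 = f σ' e2 →
      σ * a * σ⁻¹ = σ' * a * σ'⁻¹ := by
    intro σ σ' h0 h1 h2
    have hc : a * (σ⁻¹ * σ') = (σ⁻¹ * σ') * a := by
      apply commute_lift_stab f hsurj hcen hcard h01 h12 h02 hfa ha3c
      · simp [map_mul, map_inv, ← h0]
      · simp [map_mul, map_inv, ← h1]
      · simp [map_mul, map_inv, ← h2]
      · exact hrange _
    calc σ * a * σ⁻¹ = σ * (a * (σ⁻¹ * σ')) * σ'⁻¹ := by group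
      _ = σ * ((σ⁻¹ * σ') * a) * σ'⁻¹ := by rw [hc]
      _ = σ' * a * σ'⁻¹ := by group
  -- Step C
  have hex : ∀ k, k ≠ e0 → k ≠ e1 → ∃ s : Γ, f s e0 = e0 ∧ f s e1 = e1 ∧ f s e2 = k := by
    intro k hk0 hk1
    obtain ⟨x, _, hx, -, -⟩ := exists_two_avoid ({e0, e1, k} : Finset α)
      (by have : ({e0, e1, k} : Finset α).card ≤ 3 := Finset.card_le_three
          omega)
    simp only [Finset.mem_insert, Finset.mem_singleton, not_or] at hx
    obtain ⟨g, hg⟩ := lift4 f hsurj (by omega) (inj4 h01 h02 h03 h12 h13 h23)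
      (inj4 h01 (Ne.symm hk0) (Ne.symm hx.1) (Ne.symm hk1) (Ne.symm hx.2.1) (Ne.symm hx.2.2))
    exact ⟨g, hg 0, hg 1, hg 2⟩
  choose! s hs using hex
  let y : α → Γ := fun k => s k * a * (s k)⁻¹
  have hfy : ∀ k, k ≠ e0 → k ≠ e1 → f (y k) = cyc e0 e1 k := by
    intro k hk0 hk1
    obtain ⟨h0, h1, h2⟩ := hs k hk0 hk1
    simp only [y, map_mul, map_inv, hfa]
    rw [conj_cyc, h0, h1, h2]
  have hy3 : ∀ k, y k ^ 3 = 1 := by
    intro k
    simp only [y, conj_pow, ha3]; simp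
  have hrel_central : ∀ k l, k ≠ e0 → k ≠ e1 → l ≠ e0 → l ≠ e1 → k ≠ l →
      f ((y k * y l) ^ 2) = 1 := by
    intro k l hk0 hk1 hl0 hl1 hkl
    rw [map_pow, map_mul, hfy k hk0 hk1, hfy l hl0 hl1]
    exact cyc_mul_sq h01 (Ne.symm hk0) (Ne.symm hl0) (Ne.symm hk1) (Ne.symm hl1) hkl
  have he20 := hs e2 (Ne.symm h02) (Ne.symm h12)
  have he30 := hs e3 (Ne.symm h03) (Ne.symm h13)
  -- Step D
  have hD : ∀ k l, k ≠ e0 → k ≠ e1 → l ≠ e0 → l ≠ e1 → k ≠ l →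
      (y k * y l) ^ 2 = (y e2 * y e3) ^ 2 := by
    intro k l hk0 hk1 hl0 hl1 hkl
    obtain ⟨g, hg⟩ := lift4 f hsurj (by omega)
      (inj4 h01 (Ne.symm hk0) (Ne.symm hl0) (Ne.symm hk1) (Ne.symm hl1) hkl)
      (inj4 h01 h02 h03 h12 h13 h23)
    have hg0 : f g e0 = e0 := hg 0
    have hg1 : f g e1 = e1 := hg 1
    have hgk : f g k = e2 := hg 2
    have hgl : f g l = e3 := hg 3
    obtain ⟨hk0', hk1', hk2'⟩ := hs k hk0 hk1
    obtain ⟨hl0', hl1', hl2'⟩ := hs l hl0 hl1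
    have e1' : g * y k * g⁻¹ = y e2 := by
      have := hU (g * s k) (s e2) (by simp [hk0', hg0, he20.1]) (by simp [hk1', hg1, he20.2.1])
        (by simp [hk2', hgk, he20.2.2])
      simp only [y]
      rw [← this]; group
    have e2' : g * y l * g⁻¹ = y e3 := by
      have := hU (g * s l) (s e3) (by simp [hl0', hg0, he30.1]) (by simp [hl1', hg1, he30.2.1])
        (by simp [hl2', hgl, he30.2.2])
      simp only [y]
      rw [← this]; group
    have hcent := hcen _ (hrel_central k l hk0 hk1 hl0 hl1 hkl) g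
    calc (y k * y l) ^ 2 = g * (y k * y l) ^ 2 * g⁻¹ := by rw [hcent]; group
      _ = (g * y k * g⁻¹ * (g * y l * g⁻¹)) ^ 2 := by
          rw [show g * y k * g⁻¹ * (g * y l * g⁻¹) = g * (y k * y l) * g⁻¹ by group, conj_pow]
      _ = (y e2 * y e3) ^ 2 := by rw [e1', e2']
  refine ⟨y, (y e2 * y e3) ^ 2, hfy, fun k _ _ => hy3 k, hD, ?_,
    hrel_central e2 e3 (Ne.symm h02) (Ne.symm h12) (Ne.symm h03) (Ne.symm h13) h23⟩
  -- Step E
  obtain ⟨g, hg⟩ := hsurj (swap e0 e1 * swap e2 e3) (by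
    rw [mem_alternatingGroup, Perm.sign_mul, sign_swap h01, sign_swap h23]; simp)
  have hg0 : f g e0 = e1 := by
    rw [hg, Perm.mul_apply, swap_apply_of_ne_of_ne h02 h03, swap_apply_left]
  have hg1 : f g e1 = e0 := by
    rw [hg, Perm.mul_apply, swap_apply_of_ne_of_ne h12 h13, swap_apply_right]
  have hg2 : f g e2 = e3 := by
    rw [hg, Perm.mul_apply, swap_apply_left, swap_apply_of_ne_of_ne (Ne.symm h03) (Ne.symm h13)]
  have hg3 : f g e3 = e2 := by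
    rw [hg, Perm.mul_apply, swap_apply_right, swap_apply_of_ne_of_ne (Ne.symm h02) (Ne.symm h12)]
  have e1' : g * y e2 * g⁻¹ = (y e3)⁻¹ := by
    have := hU (g * s e2) (s e3 * σ₀) (by simp [he20.1, hg0, hs0, he30.2.1])
      (by simp [he20.2.1, hg1, hs1, he30.1]) (by simp [he20.2.2, hg2, hs2, he30.2.2])
    have e3' : (s e3 * σ₀) * a * (s e3 * σ₀)⁻¹ = (y e3)⁻¹ := by
      calc (s e3 * σ₀) * a * (s e3 * σ₀)⁻¹ = s e3 * (σ₀ * a * σ₀⁻¹) * (s e3)⁻¹ := by group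
        _ = (y e3)⁻¹ := by rw [hainv]; simp only [y]; group
    rw [← e3', ← this]; simp only [y]; group
  have e2' : g * y e3 * g⁻¹ = (y e2)⁻¹ := by
    have := hU (g * s e3) (s e2 * σ₀) (by simp [he30.1, hg0, hs0, he20.2.1])
      (by simp [he30.2.1, hg1, hs1, he20.1]) (by simp [he30.2.2, hg3, hs2, he20.2.2])
    have e3' : (s e2 * σ₀) * a * (s e2 * σ₀)⁻¹ = (y e2)⁻¹ := by
      calc (s e2 * σ₀) * a * (s e2 * σ₀)⁻¹ = s e2 * (σ₀ * a * σ₀⁻¹) * (s e2)⁻¹ := by group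
        _ = (y e2)⁻¹ := by rw [hainv]; simp only [y]; group
    rw [← e3', ← this]; simp only [y]; group
  set z := (y e2 * y e3) ^ 2 with hz
  have hcent : g * z = z * g :=
    hcen _ (hrel_central e2 e3 (Ne.symm h02) (Ne.symm h12) (Ne.symm h03) (Ne.symm h13) h23) g
  have e5 : z = z⁻¹ := by
    calc z = g * z * g⁻¹ := by rw [hcent]; group
      _ = (g * y e2 * g⁻¹ * (g * y e3 * g⁻¹)) ^ 2 := by
          rw [hz, show g * y e2 * g⁻¹ * (g * y e3 * g⁻¹) = g * (y e2 * y e3) * g⁻¹ by group, conj_pow]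
      _ = ((y e3)⁻¹ * (y e2)⁻¹) ^ 2 := by rw [e1', e2']
      _ = z⁻¹ := by
          rw [hz, ← mul_inv_rev, inv_pow]
  rw [pow_two]
  nth_rewrite 1 [e5]
  simp

end Lift

end Cfsg.Agent.Lib.AltMult
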