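import Cfsg.Agent.Lib.AltMult.Count
import Cfsg.Agent.Lib.KnownSimple.Schur
import Cfsg.Agent.Lib.Transfer.Misc

/-!
# Central extensions with small Sylow quotients (the cases `A_4`, `A_5`)
-/

set_option autoImplicit false

namespace Cfsg.Agent.Lib.AltMult

open Subgroup
open scoped commutatorElement

section Com4

variable {G : Type*} [Group G] [Finite G]

/-- If a central subgroup has index dividing 4, the derived subgroup has order at most 2. -/
theorem card_commutator_le_two (W : Subgroup G) (hW : W ≤ center G) (h : W.index ∣ 4) :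
    Nat.card (commutator G) ≤ 2 := by
  classical
  have hWn : W.Normal := by
    refine ⟨fun n hn g => ?_⟩
    have := mem_center_iff.mp (hW hn) g
    rw [this]; simpa using hn
  have hcent : ∀ w ∈ W, ∀ g, g * w = w * g := fun w hw g => mem_center_iff.mp (hW hw) g
  by_cases hAb : ∀ x y : G, x * y = y * x
  · have : commutator G = ⊥ := by
      rw [_root_.commutator_def, commutator_eq_bot_iff_le_centralizer]
      intro x _
      rw [mem_centralizer_iff]
      intro y _
      exact hAb y x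
    rw [this]; simp
  push Not at hAb
  obtain ⟨a, b, hab⟩ := hAb
  have hcard : Nat.card (G ⧸ W) = W.index := rfl
  have hnc : ¬ IsCyclic (G ⧸ W) := by
    intro hc
    have := commutative_of_cyclic_center_quotient (QuotientGroup.mk' W) (by
      rw [QuotientGroup.ker_mk']; exact hW)
    exact hab (this a b)
  have hmk1 : ∀ x : G, x ∈ W ↔ (x : G ⧸ W) = 1 := fun x => (QuotientGroup.eq_one_iff x).symm
  -- index is 4
  have hidx : W.index = 4 := by
    have h1 : W.index ∈ Nat.divisors 4 := by simp [h]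
    have h2 : Nat.divisors 4 = {1, 2, 4} := by decide
    rw [h2] at h1
    simp only [Finset.mem_insert, Finset.mem_singleton] at h1
    rcases h1 with h1 | h1 | h1
    · exfalso; apply hnc
      have : Subsingleton (G ⧸ W) := by
        apply (Nat.card_eq_one_iff_unique.mp (by rw [hcard, h1])).1
      exact isCyclic_of_subsingleton
    · exfalso; apply hnc
      have : Fact (Nat.card (G ⧸ W)).Prime := ⟨by rw [hcard, h1]; exact Nat.prime_two⟩
      exact isCyclic_of_prime_card rfl
    · exact h1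
  -- squares
  have hsq : ∀ x : (G ⧸ W), x ^ 2 = 1 := by
    intro x
    have h1 : orderOf x ∣ 4 := by
      rw [← hidx, ← hcard]; exact orderOf_dvd_natCard x
    have h2 : orderOf x ≠ 4 := by
      intro h3
      apply hnc
      exact isCyclic_of_orderOf_eq_card x (by rw [h3, hcard, hidx])
    have h3 : orderOf x ∣ 2 := by
      have h4 : orderOf x ∈ Nat.divisors 4 := by simp [h1]
      have h5 : Nat.divisors 4 = {1, 2, 4} := by decide
      rw [h5] at h4
      simp only [Finset.mem_insert, Finset.mem_singleton] at h4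
      rcases h4 with h4 | h4 | h4
      · rw [h4]; norm_num
      · rw [h4]
      · exact absurd h4 h2
    exact orderOf_dvd_iff_pow_eq_one.mp h3
  have hinv : ∀ x : (G ⧸ W), x⁻¹ = x := fun x => by
    rw [inv_eq_iff_mul_eq_one, ← pow_two, hsq]
  have hcomm : ∀ x y : (G ⧸ W), x * y = y * x := fun x y => by
    rw [← hinv (x * y), mul_inv_rev, hinv, hinv]
  -- all commutators are central
  have hcW : ∀ x y : G, ⁅x, y⁆ ∈ W := by
    intro x y
    rw [hmk1, commutatorElement_def, QuotientGroup.mk_mul, QuotientGroup.mk_mul, QuotientGroup.mk_mul,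
      QuotientGroup.mk_inv, QuotientGroup.mk_inv, hcomm (x : G ⧸ W) y, hinv, hinv, mul_assoc,
      mul_assoc, ← mul_assoc (x : G ⧸ W), ← pow_two, hsq, one_mul, ← pow_two, hsq]
  have hcc : ∀ x y g : G, g * ⁅x, y⁆ = ⁅x, y⁆ * g := fun x y g => hcent _ (hcW x y) g
  have hbil1 : ∀ x x' y : G, ⁅x * x', y⁆ = ⁅x, y⁆ * ⁅x', y⁆ := by
    intro x x' y
    have e : ⁅x * x', y⁆ = x * ⁅x', y⁆ * x⁻¹ * ⁅x, y⁆ := by
      simp only [commutatorElement_def]; group
    rw [e, hcc x' y x]
    simp only [mul_assoc, mul_inv_cancel_left]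
    rw [hcc x y ⁅x', y⁆]
  have hbil2 : ∀ x y y' : G, ⁅x, y * y'⁆ = ⁅x, y⁆ * ⁅x, y'⁆ := by
    intro x y y'
    have h1 : ⁅y * y', x⁆ = ⁅y, x⁆ * ⁅y', x⁆ := hbil1 y y' x
    have e : ∀ u v : G, ⁅u, v⁆ = ⁅v, u⁆⁻¹ := fun u v => (commutatorElement_inv v u).symm
    rw [e x (y * y'), h1, mul_inv_rev, ← e, ← e]
    exact hcc x y ⁅x, y'⁆
  set c := ⁅a, b⁆ with hc
  have hcsq : c ^ 2 = 1 := by
    rw [pow_two, hc, ← hbil1]
    have ha2 : a * a ∈ W := by
      rw [hmk1, QuotientGroup.mk_mul, ← pow_two, hsq]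
    have := hcent _ ha2 b
    rw [commutatorElement_def, ← this]; group
  have hbilc : c⁻¹ = ⁅b, a⁆ := by
    rw [hc, commutatorElement_inv]
  -- every element is g * w with g ∈ {1, a, b, ab}
  have hane1 : (a : G ⧸ W) ≠ 1 := by
    intro h1
    exact hab (hcent a ((hmk1 a).mpr h1) b).symm
  have hbne1 : (b : G ⧸ W) ≠ 1 := by
    intro h1
    exact hab (hcent b ((hmk1 b).mpr h1) a)
  have habne : (a : G ⧸ W) ≠ b := by
    intro h1
    have h2 : a⁻¹ * b ∈ W := QuotientGroup.eq.mp h1
    have h3 := hcent _ h2 a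
    apply hab
    have h6 : a * (a⁻¹ * b) = (a⁻¹ * b) * a := h3
    simp only [mul_inv_cancel_left] at h6
    have h7 := congrArg (a * ·) h6
    simp only [mul_assoc, mul_inv_cancel_left] at h7
    exact h7
  have hab1 : (a : G ⧸ W) * b ≠ 1 := by
    intro h1
    have h2 : a * b ∈ W := (hmk1 _).mpr (by rw [QuotientGroup.mk_mul]; exact h1)
    have h3 : b * (a * b) = a * b * b := hcent _ h2 b
    apply hab
    have h7 : (b * a) * b = (a * b) * b := by rw [mul_assoc, h3]
    exact (mul_right_cancel h7).symm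
  have := Fintype.ofFinite (G ⧸ W)
  have hall : ∀ x : G ⧸ W, x = 1 ∨ x = a ∨ x = b ∨ x = (a : G ⧸ W) * b := by
    let T : Finset (G ⧸ W) := {1, (a : G ⧸ W), (b : G ⧸ W), (a : G ⧸ W) * b}
    have hT : T.card = 4 := by
      have h1 : (b : G ⧸ W) ∉ ({(a : G ⧸ W) * b} : Finset (G ⧸ W)) := by
        simp only [Finset.mem_singleton]
        intro h1
        apply hane1
        have h2 : (a : G ⧸ W) * b = 1 * b := by rw [one_mul, ← h1]
        exact mul_right_cancel h2
      have h2 : (a : G ⧸ W) ∉ ({(b : G ⧸ W), (a : G ⧸ W) * b} : Finset (G ⧸ W)) := by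
        simp only [Finset.mem_insert, Finset.mem_singleton, not_or]
        refine ⟨habne, ?_⟩
        intro h1
        apply hbne1
        have h2 : (a : G ⧸ W) * b = a * 1 := by rw [mul_one, ← h1]
        exact mul_left_cancel h2
      have h3 : (1 : G ⧸ W) ∉ ({(a : G ⧸ W), (b : G ⧸ W), (a : G ⧸ W) * b} : Finset (G ⧸ W)) := by
        simp only [Finset.mem_insert, Finset.mem_singleton, not_or]
        exact ⟨hane1.symm, hbne1.symm, hab1.symm⟩
      simp only [T]
      rw [Finset.card_insert_of_notMem h3, Finset.card_insert_of_notMem h2,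
        Finset.card_insert_of_notMem h1, Finset.card_singleton]
    have hU : T = Finset.univ := by
      apply Finset.eq_univ_of_card
      rw [hT, ← Nat.card_eq_fintype_card, hcard, hidx]
    intro x
    have : x ∈ T := by rw [hU]; exact Finset.mem_univ _
    simpa [T] using this
  have hrep : ∀ x : G, ∃ g w : G, w ∈ W ∧ x = g * w ∧ (g = 1 ∨ g = a ∨ g = b ∨ g = a * b) := by
    intro x
    have key : ∀ g : G, (x : G ⧸ W) = g → ∃ w : G, w ∈ W ∧ x = g * w := by
      intro g hg
      refine ⟨g⁻¹ * x, QuotientGroup.eq.mp hg.symm, by simp⟩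
    rcases hall (x : G ⧸ W) with h1 | h1 | h1 | h1
    · obtain ⟨w, hw, e⟩ := key 1 h1
      exact ⟨1, w, hw, e, Or.inl rfl⟩
    · obtain ⟨w, hw, e⟩ := key a h1
      exact ⟨a, w, hw, e, Or.inr (Or.inl rfl)⟩
    · obtain ⟨w, hw, e⟩ := key b h1
      exact ⟨b, w, hw, e, Or.inr (Or.inr (Or.inl rfl))⟩
    · obtain ⟨w, hw, e⟩ := key (a * b) (by rw [h1, QuotientGroup.mk_mul])
      exact ⟨a * b, w, hw, e, Or.inr (Or.inr (Or.inr rfl))⟩
  have hcmem : c ∈ zpowers c := mem_zpowers c
  have h1mem : (1 : G) ∈ zpowers c := one_mem _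
  have hiv : c⁻¹ ∈ zpowers c := inv_mem hcmem
  have hleft : ∀ g h : G, (g = 1 ∨ g = a ∨ g = b ∨ g = a * b) → (h = a ∨ h = b) →
      ⁅g, h⁆ ∈ zpowers c := by
    intro g h hg hh
    have h11 : ⁅(1 : G), h⁆ = 1 := by simp [commutatorElement_def]
    have haa : ⁅a, a⁆ = 1 := commutatorElement_self a
    have hbb : ⁅b, b⁆ = 1 := commutatorElement_self b
    have hA : ⁅a, h⁆ ∈ zpowers c := by
      rcases hh with h0 | h0 <;> rw [h0]
      · rw [haa]; exact h1mem
      · exact hcmem
    have hB : ⁅b, h⁆ ∈ zpowers c := by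
      rcases hh with h0 | h0 <;> rw [h0]
      · rw [← hbilc]; exact hiv
      · rw [hbb]; exact h1mem
    rcases hg with h0 | h0 | h0 | h0 <;> rw [h0]
    · rw [h11]; exact h1mem
    · exact hA
    · exact hB
    · rw [hbil1]; exact mul_mem hA hB
  have hboth : ∀ g h : G, (g = 1 ∨ g = a ∨ g = b ∨ g = a * b) →
      (h = 1 ∨ h = a ∨ h = b ∨ h = a * b) → ⁅g, h⁆ ∈ zpowers c := by
    intro g h hg hh
    rcases hh with h0 | h0 | h0 | h0 <;> rw [h0]
    · have : ⁅g, (1 : G)⁆ = 1 := by simp [commutatorElement_def]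
      rw [this]; exact h1mem
    · exact hleft g a hg (Or.inl rfl)
    · exact hleft g b hg (Or.inr rfl)
    · rw [hbil2]; exact mul_mem (hleft g a hg (Or.inl rfl)) (hleft g b hg (Or.inr rfl))
  have hle : commutator G ≤ zpowers c := by
    rw [_root_.commutator_def, Subgroup.commutator_le]
    intro x _ y _
    obtain ⟨g, w, hw, rfl, hg⟩ := hrep x
    obtain ⟨h, v, hv, rfl, hh⟩ := hrep y
    rw [commutator_central (hcent w hw) (hcent v hv)]
    exact hboth g h hg hh
  calc Nat.card (commutator G) ≤ Nat.card (zpowers c) :=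
        Subgroup.card_le_of_le hle
    _ = orderOf c := Nat.card_zpowers c
    _ ≤ 2 := Nat.le_of_dvd (by norm_num) (orderOf_dvd_of_pow_eq_one hcsq)

end Com4

section Small

variable {Γ : Type*} [Group Γ] [Finite Γ] (Z : Subgroup Γ) [Z.Normal]

/-- The image of a `p`-subgroup in the quotient by a central subgroup. -/
private lemma sylow_facts (hZc : Z ≤ center Γ) (p : ℕ) [hp : Fact p.Prime] (P : Sylow p Γ) :
    ∃ W : Subgroup (P : Subgroup Γ), W ≤ center (P : Subgroup Γ) ∧ W.index ∣ Nat.card (Γ ⧸ Z) ∧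
      ∃ j, W.index = p ^ j := by
  let ψ : (P : Subgroup Γ) →* Γ ⧸ Z := (QuotientGroup.mk' Z).comp (P : Subgroup Γ).subtype
  refine ⟨ψ.ker, ?_, ?_, ?_⟩
  · intro x hx
    have h1 : ((x : Γ) : Γ ⧸ Z) = 1 := hx
    have h2 : (x : Γ) ∈ Z := (QuotientGroup.eq_one_iff _).mp h1
    have h3 := hZc h2
    rw [mem_center_iff] at h3 ⊢
    intro g
    exact Subtype.ext (h3 g)
  · rw [Subgroup.index_ker]
    exact Subgroup.card_subgroup_dvd_card _
  · rw [Subgroup.index_ker]
    have h1 : Nat.card ψ.range ∣ Nat.card (P : Subgroup Γ) := Subgroup.card_range_dvd ψ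
    obtain ⟨n, hn⟩ := IsPGroup.iff_card.mp P.isPGroup'
    rw [hn] at h1
    obtain ⟨j, -, hj⟩ := (Nat.dvd_prime_pow hp.out).mp h1
    exact ⟨j, hj⟩

theorem card_le_two_of_small (hZc : Z ≤ center Γ) (hZd : Z ≤ commutator Γ)
    (hodd : ∀ p : ℕ, p.Prime → p ≠ 2 → ¬ p ^ 2 ∣ Nat.card (Γ ⧸ Z))
    (h8 : ¬ 8 ∣ Nat.card (Γ ⧸ Z)) : Nat.card Z ≤ 2 := by
  classical
  have hcentral : ∀ z ∈ Z, ∀ y : Γ, y * z = z * y := fun z hz y => mem_center_iff.mp (hZc hz) y
  -- membership in the derived subgroup of a Sylow subgroup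
  have hmem : ∀ (p : ℕ) [Fact p.Prime] (P : Sylow p Γ) (z : Γ), z ∈ Z →
      IsPGroup p (zpowers z) → z ∈ ⁅(P : Subgroup Γ), (P : Subgroup Γ)⁆ := by
    intro p _ P z hz hpz
    have hzP := Cfsg.Agent.Lib.Transfer.central_mem_sylow P hpz (hcentral z hz)
    refine Cfsg.Agent.Lib.KnownSimple.mem_commutator_of_central (P : Subgroup Γ) (hcentral z hz) hzP
      (hZd hz) ?_
    obtain ⟨k, hk⟩ := IsPGroup.iff_card.mp hpz
    rw [Nat.card_zpowers] at hk
    rw [hk]
    exact Nat.Coprime.pow_left k ((Nat.Prime.coprime_iff_not_dvd Fact.out).mpr P.not_dvd_index)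
  -- odd primes do not divide `|Z|`
  have hodd' : ∀ q : ℕ, q.Prime → q ∣ Nat.card Z → q = 2 := by
    intro q hq hdvd
    by_contra hq2
    haveI : Fact q.Prime := ⟨hq⟩
    obtain ⟨z, hz⟩ := exists_prime_orderOf_dvd_card' q hdvd
    obtain ⟨P⟩ : Nonempty (Sylow q Γ) := inferInstance
    obtain ⟨W, hW, hd, j, hj⟩ := sylow_facts Z hZc q P
    have hj1 : j ≤ 1 := by
      by_contra hj1
      push Not at hj1
      apply hodd q hq hq2
      rw [hj] at hd
      exact dvd_trans (pow_dvd_pow q hj1) hd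
    haveI hWn : W.Normal := by
      refine ⟨fun n hn g => ?_⟩
      have := mem_center_iff.mp (hW hn) g
      rw [this]; simpa using hn
    have hcyc : IsCyclic ((P : Subgroup Γ) ⧸ W) := by
      have hcard : Nat.card ((P : Subgroup Γ) ⧸ W) = q ^ j := hj
      interval_cases j
      · have : Subsingleton ((P : Subgroup Γ) ⧸ W) :=
          (Nat.card_eq_one_iff_unique.mp (by rw [hcard]; simp)).1
        exact isCyclic_of_subsingleton
      · exact isCyclic_of_prime_card (p := q) (by rw [hcard]; simp)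
    have hcomm := commutative_of_cyclic_center_quotient (QuotientGroup.mk' W) (by
      rw [QuotientGroup.ker_mk']; exact hW)
    have hbot : ⁅(P : Subgroup Γ), (P : Subgroup Γ)⁆ = ⊥ := by
      rw [commutator_eq_bot_iff_le_centralizer]
      intro x hx
      rw [mem_centralizer_iff]
      intro y hy
      have := hcomm ⟨y, hy⟩ ⟨x, hx⟩
      exact congrArg Subtype.val this
    have h1 := hmem q P (z : Γ) z.2 (by
      apply IsPGroup.of_card (n := 1)
      rw [Nat.card_zpowers, pow_one]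
      rw [← Subgroup.orderOf_coe] at hz
      exact hz)
    rw [hbot, Subgroup.mem_bot] at h1
    have h2 : z = 1 := Subtype.ext h1
    rw [h2, orderOf_one] at hz
    exact hq.one_lt.ne hz
  -- so `Z` is a 2-group
  have hcardZ : Nat.card Z ≠ 0 := Nat.card_pos.ne'
  have h2pow := Nat.eq_prime_pow_of_unique_prime_dvd hcardZ (fun {d} hd hdvd => hodd' d hd hdvd)
  set k := (Nat.card Z).primeFactorsList.length
  haveI : Fact (Nat.Prime 2) := ⟨Nat.prime_two⟩
  obtain ⟨P⟩ : Nonempty (Sylow 2 Γ) := inferInstance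
  have hZle : Z ≤ ⁅(P : Subgroup Γ), (P : Subgroup Γ)⁆ := by
    intro z hz
    refine hmem 2 P z hz ?_
    have h1 : orderOf (⟨z, hz⟩ : Z) ∣ 2 ^ k := by
      rw [← h2pow]; exact orderOf_dvd_natCard _
    rw [Subgroup.orderOf_mk] at h1
    obtain ⟨j, -, hj⟩ := (Nat.dvd_prime_pow Nat.prime_two).mp h1
    apply IsPGroup.of_card (n := j)
    rw [Nat.card_zpowers, hj]
  obtain ⟨W, hW, hd, j, hj⟩ := sylow_facts Z hZc 2 P
  have hj2 : j ≤ 2 := by
    by_contra hj1
    push Not at hj1
    apply h8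
    rw [hj] at hd
    exact dvd_trans (pow_dvd_pow 2 (show 3 ≤ j from hj1)) hd
  have hW4 : W.index ∣ 4 := by
    rw [hj]
    exact pow_dvd_pow 2 hj2
  have h3 := card_commutator_le_two W hW hW4
  have h4 : Nat.card (⁅(P : Subgroup Γ), (P : Subgroup Γ)⁆ : Subgroup Γ) =
      Nat.card (commutator (P : Subgroup Γ)) := by
    rw [← Subgroup.map_subtype_commutator]
    exact Nat.card_congr (Subgroup.equivMapOfInjective _ _ (Subtype.val_injective)).symm.toEquiv
  calc Nat.card Z ≤ Nat.card (⁅(P : Subgroup Γ), (P : Subgroup Γ)⁆ : Subgroup Γ) :=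
        Subgroup.card_le_of_le hZle
    _ ≤ 2 := by rw [h4]; exact h3

end Small

end Cfsg.Agent.Lib.AltMult
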