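import Cfsg.Agent.Lib.AltMult.Count
import Cfsg.Agent.Lib.AltMult.Lift
import Cfsg.Agent.Lib.AltMult.Small

/-!
# The kernel of a perfect-type central extension of `A_n` has order at most 2
-/

set_option autoImplicit false

namespace Cfsg.Agent.Lib.AltMult

open Subgroup Equiv Equiv.Perm
open scoped commutatorElement

variable {α : Type*} [Fintype α] [DecidableEq α] {Γ : Type*} [Group Γ] [Finite Γ] (f : Γ →* Perm α)

theorem card_ker_le_two (hsurj : ∀ ρ ∈ alternatingGroup α, ∃ σ, f σ = ρ)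
    (hcen : ∀ u, f u = 1 → ∀ g, g * u = u * g)
    (hrange : ∀ σ, f σ ∈ alternatingGroup α) (hcard : 8 ≤ Fintype.card α)
    {e0 e1 e2 e3 : α} (h01 : e0 ≠ e1) (h02 : e0 ≠ e2) (h03 : e0 ≠ e3) (h12 : e1 ≠ e2)
    (h13 : e1 ≠ e3) (h23 : e2 ≠ e3) (hcomm : f.ker ≤ commutator Γ) :
    Nat.card f.ker ≤ 2 := by
  classical
  obtain ⟨y, z, hfy, hy3, hyy, hz2, hfz⟩ :=
    exists_gens f hsurj hcen hrange hcard h01 h02 h03 h12 h13 h23
  have hzc : ∀ g, g * z = z * g := hcen z hfz
  have hzpc : ∀ w ∈ zpowers z, ∀ g, g * w = w * g := by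
    intro w hw g
    obtain ⟨i, rfl⟩ := hw
    exact (Commute.zpow_right (hzc g) i).eq
  let K : Subgroup Γ := zpowers z
  haveI hKn : K.Normal := by
    refine ⟨fun n hn g => ?_⟩
    have := hzpc n hn g
    rw [this]; simpa using hn
  have hKker : K ≤ f.ker := by
    rw [show K = zpowers z from rfl, zpowers_le]
    exact hfz
  let s : Finset α := Finset.univ.filter (fun k => k ≠ e0 ∧ k ≠ e1)
  have hs : s.card + 2 = Fintype.card α := by
    have h1 : s = (Finset.univ.erase e0).erase e1 := by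
      ext k; simp [s, and_comm]
    rw [h1, Finset.card_erase_of_mem (by simp [h01.symm]), Finset.card_erase_of_mem (by simp),
      Finset.card_univ]
    omega
  have hmems : ∀ k, k ∈ s ↔ k ≠ e0 ∧ k ≠ e1 := fun k => by simp [s]
  let yb : α → Γ ⧸ K := fun k => ((y k : Γ) : Γ ⧸ K)
  have hb := two_mul_card_closure_le s yb
    (by
      intro i hi
      obtain ⟨h1, h2⟩ := (hmems i).mp hi
      have := hy3 i h1 h2
      simp only [yb]
      rw [← QuotientGroup.mk_pow, this, QuotientGroup.mk_one])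
    (by
      intro i hi j hj hij
      obtain ⟨h1, h2⟩ := (hmems i).mp hi
      obtain ⟨h3, h4⟩ := (hmems j).mp hj
      have := hyy i j h1 h2 h3 h4 hij
      simp only [yb]
      rw [← QuotientGroup.mk_mul, ← QuotientGroup.mk_pow, this]
      exact (QuotientGroup.eq_one_iff z).mpr (mem_zpowers z))
  rw [hs] at hb
  let G0 : Subgroup Γ := closure (y '' (s : Set α))
  have hGb : closure (yb '' (s : Set α)) = G0.map (QuotientGroup.mk' K) := by
    simp only [G0]
    rw [MonoidHom.map_closure, Set.image_image]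
    rfl
  have hG0f : G0.map f = alternatingGroup α := by
    simp only [G0]
    rw [MonoidHom.map_closure, Set.image_image]
    apply le_antisymm
    · rw [closure_le]
      rintro _ ⟨k, -, rfl⟩
      exact hrange _
    · refine (alt_le_closure h01 (by omega)).trans (closure_mono ?_)
      rintro _ ⟨k, ⟨h1, h2⟩, rfl⟩
      refine ⟨k, (hmems k).mpr ⟨h1, h2⟩, hfy k h1 h2⟩
  let fb : Γ ⧸ K →* Perm α := QuotientGroup.lift K f hKker
  let Gb : Subgroup (Γ ⧸ K) := G0.map (QuotientGroup.mk' K)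
  have hGbf : Gb.map fb = alternatingGroup α := by
    simp only [Gb]
    rw [Subgroup.map_map, ← hG0f]
    rfl
  haveI : Nontrivial α := ⟨⟨e0, e1, h01⟩⟩
  have hcardb : Nat.card Gb ≤ Nat.card (alternatingGroup α) := by
    have h1 := two_mul_nat_card_alternatingGroup (α := α)
    rw [Nat.card_perm, Nat.card_eq_fintype_card (α := α)] at h1
    rw [hGb] at hb
    have h2 : 2 * Nat.card Gb ≤ (Fintype.card α).factorial := hb
    omega
  have hinj : ∀ x ∈ Gb, fb x = 1 → x = 1 := by
    intro x hx hfx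
    let φ : Gb →* (Gb.map fb) := fb.subgroupMap Gb
    have hφs : Function.Surjective φ := fb.subgroupMap_surjective Gb
    have hc : Nat.card (Gb.map fb) = Nat.card (alternatingGroup α) := by rw [hGbf]
    have hφb : Function.Bijective φ := (Nat.bijective_iff_surjective_and_card φ).mpr
      ⟨hφs, le_antisymm (by rw [hc]; exact hcardb) (Nat.card_le_card_of_surjective φ hφs)⟩
    have h1 : φ ⟨x, hx⟩ = 1 := Subtype.ext hfx
    have h2 : (⟨x, hx⟩ : Gb) = 1 := hφb.1 (by rw [h1, map_one])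
    exact congrArg Subtype.val h2
  have hdec : ∀ g : Γ, ∃ h ∈ G0, ∃ k, f k = 1 ∧ g = h * k := by
    intro g
    have h1 : f g ∈ G0.map f := by rw [hG0f]; exact hrange g
    obtain ⟨h, hh, hfh⟩ := h1
    refine ⟨h, hh, h⁻¹ * g, ?_, by simp⟩
    rw [map_mul, map_inv, hfh]; simp
  have hcG0 : commutator Γ ≤ G0 := by
    rw [_root_.commutator_def, Subgroup.commutator_le]
    intro a _ b _
    obtain ⟨h, hh, k, hk, rfl⟩ := hdec a
    obtain ⟨h', hh', k', hk', rfl⟩ := hdec b
    rw [commutator_central (hcen k hk) (hcen k' hk'), commutatorElement_def]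
    exact mul_mem (mul_mem (mul_mem hh hh') (inv_mem hh)) (inv_mem hh')
  have hle : f.ker ≤ K := by
    intro u hu
    have h1 : u ∈ G0 := hcG0 (hcomm hu)
    have h2 : (u : Γ ⧸ K) ∈ Gb := ⟨u, h1, rfl⟩
    have h3 : fb (u : Γ ⧸ K) = 1 := hu
    have h4 := hinj _ h2 h3
    exact (QuotientGroup.eq_one_iff u).mp h4
  calc Nat.card f.ker ≤ Nat.card K := card_le_of_le hle
    _ = orderOf z := Nat.card_zpowers z
    _ ≤ 2 := Nat.le_of_dvd (by norm_num) (orderOf_dvd_of_pow_eq_one hz2)

end Cfsg.Agent.Lib.AltMult
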