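import Cfsg.Agent.Lib.AltMult.Count

/-!
# 3-cycles as products of two swaps

Basic facts on `cyc a b c = swap a b * swap b c` (the 3-cycle `a → b → c → a`).
-/

set_option autoImplicit false

namespace Cfsg.Agent.Lib.AltMult

open Subgroup Equiv Equiv.Perm

variable {α : Type*} [DecidableEq α]

/-- The 3-cycle `a → b → c → a`. -/
def cyc (a b c : α) : Perm α := swap a b * swap b c

lemma conj_cyc (g : Perm α) (a b c : α) : g * cyc a b c * g⁻¹ = cyc (g a) (g b) (g c) := by
  simp only [cyc, swap_apply_apply]; group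

lemma cyc_inv {a b c : α} (hab : a ≠ b) (hbc : b ≠ c) (hac : a ≠ c) :
    (cyc a b c)⁻¹ = cyc b a c := by
  ext x
  simp only [cyc, mul_inv_rev, swap_inv, Perm.coe_mul, Function.comp_apply]
  simp only [swap_apply_def]
  split_ifs <;> simp_all

lemma cyc_rot {a b c : α} (hab : a ≠ b) (hbc : b ≠ c) (hac : a ≠ c) : cyc a b c = cyc b c a := by
  ext x
  simp only [cyc, Perm.coe_mul, Function.comp_apply, swap_apply_def]
  split_ifs <;> simp_all

lemma cyc_apply_left {a b c : α} (hab : a ≠ b) (hac : a ≠ c) : cyc a b c a = b := by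
  simp [cyc, swap_apply_of_ne_of_ne hab hac]

lemma cyc_apply_mid {a b c : α} (hab : a ≠ b) (hbc : b ≠ c) (hac : a ≠ c) : cyc a b c b = c := by
  simp [cyc, swap_apply_of_ne_of_ne hac.symm hbc.symm]

lemma cyc_apply_right {a b c : α} : cyc a b c c = a := by
  simp [cyc]

lemma cyc_apply_of_ne {a b c x : α} (ha : x ≠ a) (hb : x ≠ b) (hc : x ≠ c) : cyc a b c x = x := by
  simp [cyc, swap_apply_of_ne_of_ne hb hc, swap_apply_of_ne_of_ne ha hb]

/-- A permutation fixing `a, b, c` commutes with the 3-cycle. -/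
lemma commute_cyc_of_fix {g : Perm α} {a b c : α} (ha : g a = a) (hb : g b = b) (hc : g c = c) :
    g * cyc a b c = cyc a b c * g := by
  have h := conj_cyc g a b c
  rw [ha, hb, hc] at h
  exact mul_inv_eq_iff_eq_mul.mp h

lemma swap_swap_sq {a k b l : α} (h1 : b ≠ a) (h2 : b ≠ k) (h3 : l ≠ a) (h4 : l ≠ k) :
    (swap a k * swap b l) ^ 2 = 1 := by
  have e : swap a k * swap b l * (swap a k)⁻¹ = swap b l := by
    rw [← swap_apply_apply, swap_apply_of_ne_of_ne h1 h2, swap_apply_of_ne_of_ne h3 h4]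
  rw [swap_inv] at e
  calc (swap a k * swap b l) ^ 2 = (swap a k * swap b l * swap a k) * swap b l := by
        rw [pow_two]; group
    _ = 1 := by rw [e]; simp

lemma cyc_mul_cyc {a b k l : α} (hab : a ≠ b) (hak : a ≠ k) (hbk : b ≠ k) :
    cyc a b k * cyc a b l = swap a k * swap b l := by
  have e : swap a b * swap b k * (swap a b)⁻¹ = swap a k := by
    rw [← swap_apply_apply, swap_apply_right, swap_apply_of_ne_of_ne hak.symm hbk.symm]
  rw [swap_inv] at e
  simp only [cyc]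
  rw [← e]; group

lemma cyc_mul_sq {a b k l : α} (hab : a ≠ b) (hak : a ≠ k) (hal : a ≠ l) (hbk : b ≠ k)
    (hbl : b ≠ l) (hkl : k ≠ l) : (cyc a b k * cyc a b l) ^ 2 = 1 := by
  rw [cyc_mul_cyc hab hak hbk]
  exact swap_swap_sq hab.symm hbk hal.symm hkl.symm

variable [Fintype α]

lemma cyc_isThreeCycle {a b c : α} (hab : a ≠ b) (hbc : b ≠ c) (hac : a ≠ c) :
    (cyc a b c).IsThreeCycle := by
  have := isThreeCycle_swap_mul_swap_same (a := b) (b := a) (c := c) hab.symm hbc hac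
  rwa [show swap b a = swap a b from swap_comm b a] at this

lemma cyc_mem {a b c : α} (hab : a ≠ b) (hbc : b ≠ c) (hac : a ≠ c) :
    cyc a b c ∈ alternatingGroup α :=
  (cyc_isThreeCycle hab hbc hac).mem_alternatingGroup

lemma cyc_pow_three {a b c : α} (hab : a ≠ b) (hbc : b ≠ c) (hac : a ≠ c) : (cyc a b c) ^ 3 = 1 := by
  rw [← (cyc_isThreeCycle hab hbc hac).orderOf]; exact pow_orderOf_eq_one _

lemma threeCycle_form {σ : Perm α} (h : σ.IsThreeCycle) :
    ∃ a b c, a ≠ b ∧ b ≠ c ∧ a ≠ c ∧ σ = cyc a b c := by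
  have hc : σ.support.card = 3 := h.card_support
  obtain ⟨a, b, c, hab, hac, hbc, -⟩ := Finset.card_eq_three.mp hc
  have h3 := cyc_isThreeCycle hab hbc hac
  have hconj : IsConj (cyc a b c) σ := by
    rw [isConj_iff_cycleType_eq, h, h3]
  obtain ⟨g, hg⟩ := isConj_iff.mp hconj
  refine ⟨g a, g b, g c, ?_, ?_, ?_, ?_⟩
  · simpa using hab
  · simpa using hbc
  · simpa using hac
  · rw [← hg, conj_cyc]

/-- The cycles `(e0 e1 k)` generate the alternating group. -/
theorem alt_le_closure {e0 e1 : α} (h01 : e0 ≠ e1) (hcard : 5 ≤ Fintype.card α) :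
    alternatingGroup α ≤ closure ((fun k => cyc e0 e1 k) '' {k | k ≠ e0 ∧ k ≠ e1}) := by
  set B := closure ((fun k => cyc e0 e1 k) '' {k | k ≠ e0 ∧ k ≠ e1}) with hB
  have h1 : ∀ k, k ≠ e0 → k ≠ e1 → cyc e0 e1 k ∈ B := fun k h0 h1 =>
    subset_closure ⟨k, ⟨h0, h1⟩, rfl⟩
  have h1' : ∀ k, k ≠ e0 → k ≠ e1 → cyc e1 e0 k ∈ B := fun k h0 h1' => by
    rw [← cyc_inv h01 h1'.symm h0.symm]
    exact B.inv_mem (h1 k h0 h1')
  -- cycles through e0
  have h2 : ∀ k l, k ≠ e0 → k ≠ e1 → l ≠ e0 → l ≠ e1 → k ≠ l → cyc k e0 l ∈ B := by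
    intro k l hk0 hk1 hl0 hl1 hkl
    have hg := h1' k hk0 hk1
    have := B.mul_mem (B.mul_mem hg (h1 l hl0 hl1)) (B.inv_mem hg)
    rw [conj_cyc] at this
    have e1' : cyc e1 e0 k e1 = e0 := cyc_apply_left h01.symm hk1.symm
    have e2' : cyc e1 e0 k e0 = k := cyc_apply_mid h01.symm hk0.symm hk1.symm
    have e3' : cyc e1 e0 k l = l := cyc_apply_of_ne hl1 hl0 hkl.symm
    rw [e1', e2', e3'] at this
    rwa [show cyc k e0 l = cyc k e0 l from rfl]
  have h3 : ∀ a b, a ≠ e0 → b ≠ e0 → a ≠ b → cyc e0 a b ∈ B := by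
    intro a b ha hb hab
    by_cases ha1 : a = e1
    · subst ha1
      exact h1 b hb hab.symm
    rw [cyc_rot ha.symm hab hb.symm, cyc_rot hab hb ha]
    by_cases hb1 : b = e1
    · rw [hb1]
      exact h1' a ha ha1
    · exact h2 b a hb hb1 ha ha1 hab.symm
  have h4 : ∀ a b c, a ≠ b → b ≠ c → a ≠ c → cyc a b c ∈ B := by
    intro a b c hab hbc hac
    by_cases ha : a = e0
    · subst ha; exact h3 b c hab.symm hac.symm hbc
    by_cases hb : b = e0
    · subst hb
      rw [cyc_rot hab hbc hac]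
      exact h3 c a hbc.symm hab hac.symm
    have erot : cyc a b c = cyc c a b := by
      rw [cyc_rot hab hbc hac, cyc_rot hbc hac.symm hab.symm]
    by_cases hc : c = e0
    · rw [erot, hc]
      exact h3 a b ha hb hab
    -- no point equal to e0: conjugate a cycle through e0
    obtain ⟨x, hx⟩ : ∃ x, x ∉ ({e0, a, b, c} : Finset α) := by
      by_contra hcon
      push Not at hcon
      have : (Finset.univ : Finset α) ⊆ {e0, a, b, c} := fun x _ => hcon x
      have h5 := Finset.card_le_card this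
      have h6 : ({e0, a, b, c} : Finset α).card ≤ 4 := Finset.card_le_four
      rw [Finset.card_univ] at h5
      omega
    simp only [Finset.mem_insert, Finset.mem_singleton, not_or] at hx
    obtain ⟨hx0, hxa, hxb, hxc⟩ := hx
    have hg : cyc e0 c x ∈ B := h3 c x hc hx0 (Ne.symm hxc)
    have hh : cyc e0 a b ∈ B := h3 a b ha hb hab
    have := B.mul_mem (B.mul_mem hg hh) (B.inv_mem hg)
    rw [conj_cyc] at this
    have e1' : cyc e0 c x e0 = c := cyc_apply_left (Ne.symm hc) (Ne.symm hx0)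
    have e2' : cyc e0 c x a = a := cyc_apply_of_ne ha hac (Ne.symm hxa)
    have e3' : cyc e0 c x b = b := cyc_apply_of_ne hb hbc (Ne.symm hxb)
    rw [e1', e2', e3'] at this
    rw [erot]
    exact this
  rw [← closure_three_cycles_eq_alternating, closure_le]
  intro σ hσ
  obtain ⟨a, b, c, hab, hbc, hac, rfl⟩ := threeCycle_form hσ
  exact h4 a b c hab hbc hac

end Cfsg.Agent.Lib.AltMult
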